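import Mathlib
import Cfsg.Agent.H55.SF5

/-!
The bound on offenders from the small fixed point lemma.
-/

set_option autoImplicit false

namespace Cfsg.Agent.H55

open Subgroup H8
open H52 (Op Opp Ft)
open scoped Pointwise commutatorElement

universe u

/-- The statement of the small fixed point lemma. -/
def SmallFix (t p : ℕ) : Prop :=
  ∀ (G : Type u) [Group G] [Finite G] (r : ℕ) [Fact r.Prime], r ≠ t → r ≠ p →
    ∀ V F T A : Subgroup G, IsElementaryAbelian t V → IsPGroup r F → IsPGroup t T → IsPGroup p A →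
    F ≤ normalizer (V : Set G) → T ≤ normalizer (V : Set G) → A ≤ normalizer (V : Set G) →
    T ≤ normalizer (F : Set G) → A ≤ normalizer (F : Set G) → A ≤ normalizer (T : Set G) →
    F ⊓ centralizer (V : Set G) = ⊥ → F ⊓ centralizer (A : Set G) ≤ centralizer (T : Set G) →
    ∀ x ∈ T, x ^ t = 1 → (centralizer ({x} : Set G)).relIndex V ≤ t ^ 2 →
      x ∈ centralizer (F : Set G)

variable {G : Type u} [Group G] [Finite G] {t p : ℕ} [ht : Fact t.Prime] [hp : Fact p.Prime]

theorem exists_relIndex_eq_pow {V : Subgroup G} (hV : IsPGroup t V) (C : Subgroup G) :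
    ∃ k, C.relIndex V = t ^ k := by
  obtain ⟨n, hn⟩ := IsPGroup.iff_card.mp hV
  obtain ⟨k, -, hk⟩ := (Nat.dvd_prime_pow ht.out).mp (hn ▸ relIndex_dvd_card C V)
  exact ⟨k, hk⟩

theorem bnd_faithful (hs : SmallFix.{u} t p) {V M T A : Subgroup G}
    (hV : IsElementaryAbelian t V) (hMV : M ≤ normalizer (V : Set G))
    (hAV : A ≤ normalizer (V : Set G)) (hM : Group.IsSolvable M) (hMp : ¬ p ∣ Nat.card M)
    (hf : M ⊓ centralizer (V : Set G) = ⊥) (hO : Op t M = ⊥) (hA : IsPGroup p A)
    (hAM : A ≤ normalizer (M : Set G)) (hT : IsPGroup t T) (hTM : T ≤ M)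
    (hAT : A ≤ normalizer (T : Set G))
    (hD : M ⊓ centralizer (A : Set G) ≤ normalizer (T : Set G)) (X : Subgroup G) (hXT : X ≤ T)
    (hX : IsElementaryAbelian t X) (hne : X ≠ ⊥) :
    t ^ 2 * Nat.card X ≤ (centralizer (X : Set G)).relIndex V := by
  have hVt := ea_isPGroup hV
  have hcent : ∀ Y ≤ T, Y ≠ ⊥ → ∃ r : ℕ, r.Prime ∧ r ≠ t ∧ r ≠ p ∧
      ¬ Op r M ≤ centralizer (Y : Set G) := by
    intro Y hY hY0
    by_contra hc
    push Not at hc
    refine hY0 (le_bot_iff.mp (hO ▸ le_Op_of_cent hM (hY.trans hTM) (hT.to_le hY) fun s hs => ?_))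
    by_cases h1 : s = t
    · subst h1
      rw [hO]; exact bot_le
    by_cases h2 : s = p
    · subst h2
      rw [eq_bot_of_isPGroup_of_not_dvd (Op_isPGroup s M) (not_dvd_card_of_le (H52.Op_le M) hMp)]
      exact bot_le
    exact hc s hs.out h1 h2
  induction hn : Nat.card X using Nat.strong_induction_on generalizing X with
  | _ n ih =>
  subst hn
  by_cases h2 : t ^ 2 ≤ Nat.card X
  · obtain ⟨r, hr, hrt, -, hnc⟩ := hcent X hXT hne
    haveI := Fact.mk hr
    have hXF : X ≤ normalizer ((Op r M : Subgroup G) : Set G) :=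
      (hXT.trans hTM).trans (H52.le_normalizer_Op M)
    obtain ⟨B, hB, hBn⟩ := exists_hyp_not_le hX hne
      (not_dvd_card_of_isPGroup hrt (Op_isPGroup r M)) hXF hnc
    have hXB := ea_le_normalizer_centralizer hX hB.le
    have hY : ⁅Op r M ⊓ centralizer (B : Set G), X⁆ ≤ Op r M ⊓ centralizer (B : Set G) :=
      commutator_le_left' (H4.le_normalizer_inf hXF hXB)
    have hYM := (hY.trans inf_le_left).trans (H52.Op_le M)
    have h3 : ¬ centralizer (B : Set G) ⊓ V ≤ centralizer (X : Set G) := by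
      intro hle
      refine hBn (commutator_eq_bot_iff_le_centralizer.mp (le_bot_iff.mp (hf ▸ le_inf hYM
        (le_centralizer_iff.mp (H4.thompson_p_times_q (ea_isPGroup (ea_mono hX hB.le))
          (coprime_of_ne hrt ((Op_isPGroup r M).to_le (hY.trans inf_le_left))) hVt
          (le_centralizer_iff.mp (hY.trans inf_le_right))
          (((hB.le.trans hXT).trans hTM).trans hMV) (hYM.trans hMV) ?_)))))
      rw [inf_comm V]
      exact le_centralizer_iff.mp (commutator_le_centralizer (H4.le_normalizer_inf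
        (inf_le_right.trans le_normalizer) ((inf_le_left.trans (H52.Op_le M)).trans hMV))
        (le_centralizer_iff.mp hle))
    obtain ⟨k, hk⟩ := exists_relIndex_eq_pow (hVt.to_le (inf_le_right :
      centralizer (B : Set G) ⊓ V ≤ V)) (centralizer (X : Set G))
    have h4 : t ≤ (centralizer (X : Set G)).relIndex (centralizer (B : Set G) ⊓ V) := by
      rcases k with _ | k
      · exact absurd (relIndex_eq_one.mp hk) h3
      · rw [hk]; exact Nat.le_self_pow (by omega) t
    have h5 := ih _ (H7.card_lt_of_lt (lt_of_le_of_ne hB.le hB.ne)) B (hB.le.trans hXT)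
      (ea_mono hX hB.le) (hB.ne_bot h2) rfl
    rw [← inf_eq_left.mpr (H84.centralizer_anti hB.le : centralizer (X : Set G) ≤ _),
      ← relIndex_inf_mul_relIndex, hB.card]
    calc t ^ 2 * (Nat.card B * t) = t * (t ^ 2 * Nat.card B) := by ring
      _ ≤ _ := Nat.mul_le_mul h4 h5
  · obtain ⟨x, hx, hx1⟩ := exists_ne_one_of_ne_bot hne
    obtain ⟨r, hr, hrt, hrp, hnc⟩ := hcent (zpowers x) ((zpowers_le.mpr hx).trans hXT)
      (zpowers_ne_bot.mpr hx1)
    haveI := Fact.mk hr
    have h3 : ¬ (centralizer ({x} : Set G)).relIndex V ≤ t ^ 2 := fun hle =>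
      hnc (le_centralizer_iff.mp (zpowers_le.mpr (hs G r hrt hrp V (Op r M) T A hV (Op_isPGroup r M)
        hT hA ((H52.Op_le M).trans hMV) (hTM.trans hMV) hAV (hTM.trans (H52.le_normalizer_Op M))
        (hAM.trans (norm_Op r M)) hAT
        (le_bot_iff.mp (hf ▸ inf_le_inf_right _ (H52.Op_le M)))
        (le_centralizer_of_inf_eq_bot inf_le_left le_rfl (hTM.trans (H52.le_normalizer_Op M))
          ((inf_le_inf_right _ (H52.Op_le M)).trans hD) (inf_eq_bot_of_ne hrt (Op_isPGroup r M) hT))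
        x (hXT hx) (hX.2 x hx) hle)))
    obtain ⟨k, hk⟩ := exists_relIndex_eq_pow hVt (centralizer ({x} : Set G))
    obtain ⟨j, hj⟩ := IsPGroup.iff_card.mp (ea_isPGroup hX)
    refine le_trans ?_ (relIndex_le_of_le_left (centralizer_le_singleton hx)
      (H93.relIndex_ne_zero' _ _))
    rw [hk] at h3 ⊢
    rw [hj] at h2 ⊢
    rw [← pow_add]
    rw [not_le, Nat.pow_lt_pow_iff_right ht.out.one_lt] at h2 h3
    exact Nat.pow_le_pow_right ht.out.pos (by omega)

theorem map_subgroupOf_le_normalizer {H K L : Subgroup G} {G' : Type*} [Group G'] [Finite G']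
    (f : H →* G') (h : K ≤ normalizer (L : Set G)) :
    (K.subgroupOf H).map f ≤ normalizer (((L.subgroupOf H).map f : Subgroup G') : Set G') := by
  refine le_normalizer_of_forall ?_
  rintro _ ⟨x, hx, rfl⟩ _ ⟨y, hy, rfl⟩
  exact ⟨x * y * x⁻¹, H4.conj_mem_of_mem_normalizer (K := L) (a := x) (k := y) (h hx) hy, by simp⟩

theorem bnd_of_small (hs : SmallFix.{u} t p) {M T A : Subgroup G}
    (hM : Group.IsSolvable M) (hMp : ¬ p ∣ Nat.card M)
    (hc : M ⊓ centralizer (pCoreOf t M : Set G) ≤ pCoreOf t M)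
    (hA : IsPGroup p A) (hAM : A ≤ normalizer (M : Set G))
    (hT : IsPGroup t T) (hTM : T ≤ M) (hAT : A ≤ normalizer (T : Set G))
    (hDT : M ⊓ centralizer (A : Set G) ≤ normalizer (T : Set G)) : Bnd t M T := by
  intro X hXT hX hX' hn
  set Z := sylowCenterClosure t M with hZ
  set H := M ⊔ A with hH
  have hZM : Z ≤ M := H84.sylowCenterClosure_le M
  have hMH : M ≤ H := le_sup_left
  have hZH : Z ≤ H := hZM.trans hMH
  have hXH : X ≤ H := (hXT.trans hTM).trans hMH
  have hAZ : A ≤ normalizer (Z : Set G) :=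
    hAM.trans (H84.normalizer_le_normalizer_sylowCenterClosure M)
  haveI : (Z.subgroupOf H).Normal := H93.normal_subgroupOf_of_le_normalizer'
    (sup_le (H84.le_normalizer_sylowCenterClosure M) hAZ)
  have hV := H93.isElementaryAbelian_subgroupOf H (H93.zc_le_centralizer_self hc)
    (fun x hx => H93.zc_pow hc hx)
  let φ := H53.quotAct (Z.subgroupOf H)
  haveI := H4.Ext.finite_semidirect φ
  let f : H →* (Z.subgroupOf H) ⋊[φ] _ := SemidirectProduct.inr.comp (QuotientGroup.mk' _)
  have hker : ∀ x : H, f x = 1 ↔ (x : G) ∈ centralizer (Z : Set G) := fun x => by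
    rw [← H93.mem_centralizer_subgroupOf hZH, ← QuotientGroup.eq_one_iff]
    exact (injective_iff_map_eq_one' _).mp SemidirectProduct.inr_injective _
  have hR : ∀ K : Subgroup H, K.map f ≤ normalizer (H4.Ext.L φ ⊤ : Set (_ ⋊[φ] _)) := by
    rintro K _ ⟨x, -, rfl⟩
    exact (H4.Ext.inv_iff φ).mp (H4.Ext.inv_top φ) ⟨_, mem_top _, rfl⟩
  have hconj : ∀ (x : H) (v : Z.subgroupOf H),
      SemidirectProduct.inl v * f x = f x * SemidirectProduct.inl v ↔ (v : H) * x = x * v := by
    intro x v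
    have h2 := H4.Ext.inr_conj_inl φ (QuotientGroup.mk x) v
    change f x * _ * (f x)⁻¹ = _ at h2
    rw [eq_comm, ← mul_inv_eq_iff_eq_mul, h2, SemidirectProduct.inl_injective.eq_iff,
      Subtype.ext_iff, eq_comm (a := (v : H) * x), ← mul_inv_eq_iff_eq_mul]
    rfl
  have key := bnd_faithful hs (V := H4.Ext.L φ ⊤) (M := (M.subgroupOf H).map f)
    (T := (T.subgroupOf H).map f) (A := (A.subgroupOf H).map f) ?_ (hR _) (hR _)
    (H4.Ext.isSolvable_map_of_isSolvable _ (H4.isSolvable_subgroupOf hM)) ?_ ?_ ?_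
    (hA.comap_subtype.map f) (map_subgroupOf_le_normalizer f hAM) (hT.comap_subtype.map f)
    (map_mono fun x hx => hTM hx) (map_subgroupOf_le_normalizer f hAT) ?_
    ((X.subgroupOf H).map f) (map_mono fun x hx => hXT hx) ?_ ?_
  · have e1 : f.ker = (centralizer (Z : Set G)).subgroupOf H := Subgroup.ext hker
    rw [← relIndex_ker, e1, relIndex_subgroupOf hXH] at key
    refine key.trans (le_of_eq ?_)
    have h1 : centralizer (((X.subgroupOf H).map f : Subgroup _) : Set (_ ⋊[φ] _)) ⊓ H4.Ext.L φ ⊤ =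
        H4.Ext.L φ (((centralizer (X : Set G)).subgroupOf H).subgroupOf (Z.subgroupOf H)) := by
      ext z
      constructor
      · rintro ⟨hz, v, -, rfl⟩
        exact ⟨v, fun x hx => congrArg Subtype.val ((hconj ⟨x, hXH hx⟩ v).mp
          (hz _ ⟨⟨x, hXH hx⟩, hx, rfl⟩).symm).symm, rfl⟩
      · rintro ⟨v, hv, rfl⟩
        refine ⟨?_, v, mem_top v, rfl⟩
        rintro _ ⟨x, hx, rfl⟩
        exact ((hconj x v).mpr (Subtype.ext (hv x hx).symm)).symm
    rw [← inf_relIndex_right, h1, relIndex_map_map_of_injective _ _ SemidirectProduct.inl_injective,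
      relIndex_top_right, ← relIndex_subgroupOf hZH]
    rfl
  · refine ⟨H7.isMulCommutative_of_forall ?_, ?_⟩
    · rintro _ ⟨u, -, rfl⟩ _ ⟨v, -, rfl⟩
      rw [← map_mul, ← map_mul, hV.1.is_comm.comm]
    · rintro _ ⟨u, -, rfl⟩
      rw [← map_pow, show u ^ t = 1 from Subtype.ext (hV.2 u u.2), map_one]
  · refine fun hd => hMp (hd.trans ((card_map_dvd _ _).trans ?_))
    rw [H4.card_subgroupOf_of_le hMH]
  · rw [eq_bot_iff]
    rintro _ ⟨⟨m, -, rfl⟩, hm⟩
    exact (hker m).mpr fun z hz => congrArg Subtype.val ((hconj m ⟨⟨z, hZH hz⟩, hz⟩).mp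
      (hm _ ⟨_, mem_top _, rfl⟩))
  · haveI : (Z.subgroupOf M).Normal :=
      H93.normal_subgroupOf_of_le_normalizer' (H84.le_normalizer_sylowCenterClosure M)
    have hO := H93.pCore_quotient_centralizer_zc (p := t) M
    let j : M →* _ := f.comp (inclusion hMH)
    set R := Op t ((M.subgroupOf H).map f) with hRdef
    haveI hRn : (R.comap j).Normal := ⟨fun x hx g => by
      rw [mem_comap, map_mul, map_mul, map_inv]
      exact H4.conj_mem_of_mem_normalizer (H52.le_normalizer_Op _ ⟨inclusion hMH g, g.2, rfl⟩) hx⟩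
    have h1 : (R.comap j).map (QuotientGroup.mk' (centralizer (Z.subgroupOf M : Set M))) ≤ ⊥ := by
      rw [← hO]
      haveI := hRn.map (QuotientGroup.mk' (centralizer (Z.subgroupOf M : Set M)))
        (QuotientGroup.mk'_surjective _)
      refine H3.le_pCore ?_
      rintro ⟨_, x, hx, rfl⟩
      obtain ⟨k, hk⟩ := Op_isPGroup t _ ⟨_, hx⟩
      refine ⟨k, Subtype.ext ?_⟩
      change QuotientGroup.mk' _ x ^ t ^ k = 1
      rw [← map_pow]
      refine (QuotientGroup.eq_one_iff _).mpr ((H93.mem_centralizer_subgroupOf hZM).mpr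
        ((hker (inclusion hMH (x ^ t ^ k))).mp ?_))
      exact (map_pow j x _).trans (congrArg Subtype.val hk)
    rw [eq_bot_iff]
    intro y hy
    obtain ⟨m, hm, rfl⟩ := H52.Op_le _ hy
    have h2 := h1 (mem_map_of_mem _ (show (⟨m, hm⟩ : M) ∈ R.comap j from hy))
    exact (hker m).mpr ((H93.mem_centralizer_subgroupOf hZM).mp ((QuotientGroup.eq_one_iff _).mp h2))
  · rintro _ ⟨⟨m, hm, rfl⟩, hcm⟩
    have hN : A ≤ normalizer ((M ⊓ centralizer (Z : Set G) : Subgroup G) : Set G) :=
      H4.le_normalizer_inf hAM (H4.le_normalizer_centralizer hAZ)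
    obtain ⟨n, hn', hnm⟩ := H4.exists_centralizer_of_fixed_mod hN
      (H4.coprime_card_of_isPGroup ((Nat.Prime.coprime_iff_not_dvd hp.out).mpr
        (not_dvd_card_of_le inf_le_left hMp)).symm hA).symm
      (Or.inl (H4.isSolvable_of_isPGroup hA)) (k := m) fun a ha => by
        refine ⟨commutator_le_right' hAM (commutator_mem_commutator ha hm), ?_⟩
        have h1 := hcm _ ⟨⟨a, mem_sup_right ha⟩, ha, rfl⟩
        rw [← commutatorElement_eq_one_iff_mul_comm, ← map_commutatorElement] at h1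
        simpa [commutatorElement_def] using (hker _).mp h1
    refine map_subgroupOf_le_normalizer f hDT ⟨⟨n, hMH hn'.1⟩ * m, ⟨mul_mem hn'.1 hm, hnm⟩, ?_⟩
    rw [map_mul, (hker ⟨n, hMH hn'.1⟩).mpr hn'.2, one_mul]
  · refine ⟨H7.isMulCommutative_of_forall ?_, ?_⟩
    · rintro _ ⟨u, hu, rfl⟩ _ ⟨v, hv, rfl⟩
      rw [← commutatorElement_eq_one_iff_mul_comm, ← map_commutatorElement]
      refine (hker _).mpr ?_
      simpa [commutatorElement_def] using hX' (commutator_mem_commutator hu hv)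
    · rintro _ ⟨u, hu, rfl⟩
      rw [← map_pow]
      exact (hker _).mpr (hX u hu)
  · exact fun e => hn fun x hx => (hker ⟨x, hXH hx⟩).mp (mem_bot.mp (e ▸ mem_map_of_mem f hx))

/-- The solvable signalizer functor theorem from the small fixed point lemma. -/
theorem ssft_of_small {A : Subgroup G} {θ : G → Subgroup G}
    (hs : ∀ (t : ℕ) [Fact t.Prime], t = 2 ∨ t = 3 → p ≠ 2 → p ≠ t → SmallFix.{u} t p)
    (hA : IsElementaryAbelian p A) (hA3 : p ^ 3 ≤ Nat.card A)
    (hθ : IsSolvableSignalizerFunctor p A θ) : signalizerClosure A θ ∈ signalizerFamily p A θ :=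
  ssft_of_bnd (fun _ _ _ t _ h1 h2 h3 _ _ _ => bnd_of_small (hs t h1 h2 h3)) hA hA3 hθ

end Cfsg.Agent.H55
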