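import Mathlib
import Cfsg.Agent.H97.JmDefs

/-!
# The Frattini argument as a divisibility
-/

set_option autoImplicit false

namespace Cfsg.Agent.H97.JM

open Subgroup

universe u

theorem pFR : FR.{u} := by
  intro G _ _ p _ S K H hS hK hN
  haveI : (K.subgroupOf H).Normal := (normal_subgroupOf_iff_le_normalizer hK).2 hN
  have h := Sylow.normalizer_sup_eq_top' (S.subtype (hS.trans hK)) (N := K.subgroupOf H)
    (comap_mono hS)
  set N := normalizer (((S.subtype (hS.trans hK) : Sylow p H) : Subgroup H) : Set H) with hNd
  have h1 : Nat.card (H ⧸ K.subgroupOf H) ∣ Nat.card N := by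
    refine card_dvd_of_surjective ((QuotientGroup.mk' _).comp N.subtype) ?_
    rw [← MonoidHom.range_eq_top, MonoidHom.range_comp, range_subtype]
    have := congrArg (Subgroup.map (QuotientGroup.mk' (K.subgroupOf H))) h
    rwa [Subgroup.map_sup, QuotientGroup.map_mk'_self, sup_bot_eq, ← MonoidHom.range_eq_map,
      QuotientGroup.range_mk'] at this
  have h2 : Nat.card N ∣ Nat.card (normalizer ((S : Subgroup G) : Set G)) := by
    rw [← card_map_of_injective (K := N) H.subtype_injective]
    refine card_dvd_of_le ((le_normalizer_map _).trans (le_of_eq ?_))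
    rw [Sylow.coe_subtype, subgroupOf_map_subtype, inf_eq_left.2 (hS.trans hK)]
  rw [card_eq_card_quotient_mul_card_subgroup (K.subgroupOf H),
    Nat.card_congr (subgroupOfEquivOfLe hK).toEquiv, mul_comm]
  exact Nat.mul_dvd_mul_left _ (h1.trans h2)

end Cfsg.Agent.H97.JM
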