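import Mathlib
import Cfsg.Agent.H45.OnDefs

/-!
# Project ON: components outside the class of lines are semiregular
-/

set_option autoImplicit false

namespace Cfsg.Agent.H55.OnL

open Cfsg.Agent.H45.On

universe u v

theorem l2 (sim : SimStmt.{u}) : L2Stmt.{u, v} := by
  intro G Ω _ _ _ _ S L K ls k1 d0 x y M a hM nc ti ha a1 ay
  by_contra yx
  have uq : ∀ {z M₁ M₂}, L.Cp z M₁ → L.Cp z M₂ → M₁ = M₂ := fun {z M₁ M₂} h1 h2 => by
    obtain ⟨A, hA⟩ := Set.ncard_eq_one.1 (k1 z)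
    exact (show M₁ ∈ ({A} : Set _) from hA ▸ h1).trans (show M₂ ∈ ({A} : Set _) from hA ▸ h2).symm
  have bl1 : ∀ z w, z ∈ L.Bl z w := fun z w U _ h _ => h
  have bl2 : ∀ z w, w ∈ L.Bl z w := fun z w U _ _ h => h
  have cen : ∀ {z w v N} {g : G}, S.C z N → ¬ L.Cp z N → g ∈ N → v ∈ L.Bl z w →
      g • v ∈ L.Bl z w := fun {z w v N g} hN n hg hv U hU h1 h2 => by
    have h3 := K.on g (hv U hU h1 h2)
    obtain ⟨A, hA, l⟩ := h1
    rwa [cj_of_comm fun m hm => S.comm hN hA.1 (fun e => n (e ▸ hA)) g hg m (l hm)] at h3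
  obtain ⟨U, hU, Ux, Uy⟩ := K.join (Ne.symm yx)
  obtain ⟨A, hA, UA⟩ := id Ux
  obtain ⟨s, hs, sU⟩ : ∃ s ∈ A, cj s U ≠ U := by
    by_contra hn
    push Not at hn
    have h5 := K.five hU hA UA
    have := Set.ncard_le_ncard (show {U' | ∃ s ∈ A, U' = cj s U} ⊆ {U} from
      fun _ ⟨s, hs, e⟩ => e.trans (hn s hs))
    rw [Set.ncard_singleton] at this
    omega
  have sx : s • x = x := S.fx hA.1 s hs
  have y'x : s • y ≠ x := fun e => yx (smul_left_cancel s (e.trans sx.symm))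
  have ay' : a • s • y = s • y := by
    rw [← mul_smul, S.comm hM hA.1 (fun e => nc (e ▸ hA)) a ha s hs, mul_smul, ay]
  have nb : s • y ∉ L.Bl x y := fun h => by
    obtain ⟨B, hB, UB⟩ := h U hU Ux Uy
    obtain ⟨A', hA', l1⟩ := K.on s Ux
    obtain ⟨B', hB', l2⟩ := K.on s Uy
    rw [sx] at hA'
    obtain rfl := uq hA hA'
    obtain rfl := uq hB hB'
    exact sU ((K.eq_inf (K.ln s hU) hA hB l1 l2 y'x.symm).trans
      (K.eq_inf hU hA hB UA UB y'x.symm).symm)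
  have yy : y ≠ s • y := fun e => nb (e ▸ bl2 x y)
  have xb : x ∉ L.Bl y (s • y) := fun h =>
    nb (ls _ _ x y yy (Ne.symm yx) h (bl1 _ _) ▸ bl2 _ _)
  have aZ : a ∈ fixingSubgroup G (L.Bl y (s • y)) := (mem_fixingSubgroup_iff G).2 fun w hw => by
    by_contra ne
    have h1 := K.bl a hw
    rw [ay, ay'] at h1
    have xw : x ≠ w := fun e => xb (e ▸ hw)
    have e1 := ls _ _ w _ yy (Ne.symm ne) hw h1
    have e2 := ls _ _ w _ xw (Ne.symm ne) (bl2 x w) (cen hM nc ha (bl2 x w))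
    exact xb (e1 ▸ e2 ▸ bl1 x w)
  obtain ⟨c, cx, -⟩ := S.tr2 x y y x (Ne.symm yx) yx
  have hM' : S.C y (cj c M) := cx ▸ S.conj c hM
  have nc' : ¬ L.Cp y (cj c M) := fun h => by
    have := K.cp c⁻¹ h
    rw [cj_inv_cj, ← cx, inv_smul_smul] at this
    exact nc this
  generalize cj c M = M' at hM' nc'
  have nZ : ∀ t ∈ M', ∀ z ∈ fixingSubgroup G (L.Bl y (s • y)),
      t * z * t⁻¹ ∈ fixingSubgroup G (L.Bl y (s • y)) := fun t ht z hz =>
    (mem_fixingSubgroup_iff G).2 fun w hw => by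
      rw [mul_smul, mul_smul, (mem_fixingSubgroup_iff G).1 hz _ (cen hM' nc' (inv_mem ht) hw),
        smul_inv_smul]
  have nle : ¬ M' ≤ fixingSubgroup G (L.Bl y (s • y)) := fun l =>
    yy (d0 y _ M' hM' fun m hm => (mem_fixingSubgroup_iff G).1 (l hm) _ (bl2 _ _)).symm
  generalize fixingSubgroup G (L.Bl y (s • y)) = Z at aZ nZ nle
  obtain ⟨-, -, -, s4, s5, -⟩ := sim M' (S.simple hM') (S.nab hM')
  have cZ : ∀ t ∈ M', t * a * t⁻¹ * a⁻¹ ∈ Z := fun t ht => mul_mem (nZ t ht a aZ) (inv_mem aZ)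
  by_cases e : cj a M' = M'
  · rcases s5 (M' ⊓ Z) inf_le_left fun t ht h hh =>
      ⟨M'.mul_mem (M'.mul_mem ht hh.1) (M'.inv_mem ht), nZ t ht h hh.2⟩ with h | h
    · refine yx (d0 y x M' hM' fun t ht => ?_).symm
      have h1 : t * a * t⁻¹ * a⁻¹ ∈ M' ⊓ Z := Subgroup.mem_inf.2 ⟨by
        have := mul_mem ht (e ▸ cj_mem (g := a) (inv_mem ht))
        simpa only [mul_assoc] using this, cZ t ht⟩
      rw [h, Subgroup.mem_bot, mul_inv_eq_one] at h1
      have h2 : cj t M = M := by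
        by_contra ne
        have h3 : a ∈ M ⊓ cj t M := ⟨ha, h1 ▸ cj_mem ha⟩
        rw [ti t ne] at h3
        exact a1 h3
      exact L.uq _ _ M (h2 ▸ S.conj t hM) hM
    · exact nle (h ▸ inf_le_right)
  · refine nle (s4 Z fun t ht t' ht' => ?_)
    have h1 := S.comm hM' (ay ▸ S.conj a hM') (Ne.symm e) t ht _ (cj_mem (g := a) ht')
    have h2 := mul_mem (nZ t ht _ (cZ t' ht')) (inv_mem (cZ t' ht'))
    have h3 : t⁻¹ = a * t' * a⁻¹ * t⁻¹ * (a * t' * a⁻¹)⁻¹ := by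
      rw [eq_mul_inv_iff_mul_eq, eq_mul_inv_iff_mul_eq, mul_assoc t⁻¹, ← h1, inv_mul_cancel_left]
    convert h2 using 1
    conv_rhs => rw [h3]
    group

end Cfsg.Agent.H55.OnL
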