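import Cfsg.Agent.H18.RfSc

/-! Project RF, piece MOA: the extremal offender on an elementary abelian group. -/

set_option autoImplicit false

namespace Cfsg.Agent.H55.RfMoa

open Cfsg Subgroup Cfsg.Agent.H18.MaxOff Cfsg.Agent.H18.Rf

universe u

theorem all {G : Type u} [Group G] [Finite G] {A X Y : Subgroup G} (h2 : ∀ a ∈ A, a * a = 1)
    (hY : Y ≤ normalizer (A : Set G)) (y2 : ∀ y ∈ Y, y * y = 1) (hX : X ≤ A)
    (xc : ∀ a ∈ A, a ∈ X ↔ ∀ y ∈ Y, a * y * a⁻¹ * y⁻¹ ∈ Y)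
    (inj : ∀ t ∈ A, t ∉ X → (∀ y ∈ Y, t * y * t⁻¹ * y⁻¹ ∈ X) →
      ∀ y ∈ Y, t * y * t⁻¹ * y⁻¹ ∈ Y → y ∈ A) :
    ∀ t ∈ A, ∀ y ∈ Y, t * y * t⁻¹ * y⁻¹ ∈ X := by
  have iv : ∀ a ∈ A, a⁻¹ = a := fun a ha => inv_eq_of_mul_eq_one_right (h2 a ha)
  have hA : ∀ a ∈ A, ∀ y ∈ Y, a * y * a⁻¹ * y⁻¹ ∈ A := fun a ha y hy => by
    have := A.mul_mem ha ((mem_normalizer_iff.1 (hY hy) _).1 (A.inv_mem ha))
    simpa [mul_assoc] using this
  have hD : ∀ d ∈ A, d ∈ Y → d ∈ X := fun d hd hy => (xc d hd).2 fun y hy' =>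
    Y.mul_mem (Y.mul_mem (Y.mul_mem hy hy') (Y.inv_mem hy)) (Y.inv_mem hy')
  let V : Subgroup G :=
    { carrier := {t | t ∈ A ∧ ∀ y ∈ Y, t * y * t⁻¹ * y⁻¹ ∈ X}
      one_mem' := ⟨A.one_mem, fun y _ => by simp⟩
      mul_mem' := by
        rintro t s ⟨ht, h1⟩ ⟨hs, h3⟩
        refine ⟨A.mul_mem ht hs, fun y hy => ?_⟩
        have e : t * s * y * (t * s)⁻¹ * y⁻¹ =
            t * (s * y * s⁻¹ * y⁻¹) * t⁻¹ * (t * y * t⁻¹ * y⁻¹) := by group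
        rw [e, comm_of_sq h2 ht (hA s hs y hy), mul_inv_cancel_right]
        exact X.mul_mem (h3 y hy) (h1 y hy)
      inv_mem' := by
        rintro t ht
        rw [iv t ht.1]
        exact ht }
  have XV : X ≤ V := fun x hx => ⟨hX hx, fun y hy =>
    hD _ (hA x (hX hx) y hy) ((xc x (hX hx)).1 hx y hy)⟩
  have YV : Y ≤ normalizer (V : Set G) := fun y hy => mem_norm_of_le fun t ht => by
    have := V.mul_mem (V.inv_mem (XV (ht.2 y hy))) ht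
    rwa [show (t * y * t⁻¹ * y⁻¹)⁻¹ * t = y * t * y⁻¹ by group] at this
  have KA : ∀ a ∈ A, a ∈ Y ⊔ V → a ∈ V := fun a ha hk => by
    obtain ⟨y, hy, v, hv, rfl⟩ := mem_sup_prod YV hk
    exact V.mul_mem (XV (hD y ((A.mul_mem_cancel_right hv.1).1 ha) hy)) hv
  suffices h : A ≤ V from fun t ht => (h ht).2
  by_contra hne
  obtain ⟨p, hp, hpK, hpn⟩ := grow (K := Y ⊔ V) (pg_sup (pg_of_sq h2) (pg_of_sq y2) hY)
    (sup_le_sup_left (fun _ h => h.1) _) fun h => hne fun a ha => KA a ha (h (mem_sup_right ha))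
  obtain ⟨y0, hy0, u, hu, rfl⟩ := mem_sup_prod hY hp
  have un : u ∈ normalizer ((Y ⊔ V : Subgroup G) : Set G) :=
    (mul_mem_cancel_left (le_normalizer (mem_sup_left hy0))).1 hpn
  refine hpK ((Y ⊔ V).mul_mem (mem_sup_left hy0) (mem_sup_right ⟨hu, fun y hy => ?_⟩))
  by_cases ya : y ∈ A
  · rw [comm_of_sq h2 hu ya]
    simp
  · by_contra tX
    have tA := hA u hu y hy
    have tV := KA _ tA ((Y ⊔ V).mul_mem ((mem_normalizer_iff.1 un y).1 (mem_sup_left hy))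
      ((Y ⊔ V).inv_mem (mem_sup_left hy)))
    refine ya (inj _ tA tX tV.2 y hy ?_)
    have e : y * (u * y * u⁻¹ * y⁻¹) * y⁻¹ = (u * y * u⁻¹ * y⁻¹)⁻¹ := by
      calc _ = y * u * y⁻¹ * (y * y) * u⁻¹ * (y * y)⁻¹ := by group
        _ = _ := by rw [y2 y hy]; group
    generalize u * y * u⁻¹ * y⁻¹ = t at *
    rw [iv t tA, mul_assoc t, mul_assoc t, e, mul_inv_cancel]
    exact Y.one_mem

theorem moa : MoAStmt.{u} := fun G _ _ A h2 hw hns => by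
  obtain ⟨g, X, Y, hY, hX, ny, nx, xc, cd, inj, -⟩ := maxoff A h2 hw hns
  have yn : Y ≤ normalizer (A : Set G) := hY ▸ inf_le_right
  have ye : ∀ y ∈ Y, y * y = 1 := fun y hy => sq_cj h2 g y (hY ▸ hy).1
  have xa : X ≤ A := hX ▸ inf_le_left
  have k := all h2 yn ye xa xc inj
  exact ⟨g, X, Y, hY, hX, yn, ye, xa, ny, nx, xc, cd, fun t ht tx => inj t ht tx (k t ht), k⟩

end Cfsg.Agent.H55.RfMoa
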