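import Mathlib
import Cfsg.Agent.H55.S6K

/-! Facts on `Sp₆(2)`: the piece `KC`. -/

set_option autoImplicit false
set_option maxRecDepth 100000
set_option synthInstance.maxSize 2000

namespace Cfsg.Agent.H55.S6K

open Cfsg Subgroup
open Cfsg.Agent.H44 Cfsg.Agent.H55.Sp6 Cfsg.Agent.H2.L3E Cfsg.Agent.H41.S6

/-! ### KC -/

def LA : List ℕ := [0, 8, 16, 24, 32, 40, 48, 56, 64, 73, 80, 89, 128, 136, 145, 153, 192, 201, 209,
  216, 256, 264, 290, 298, 384, 392, 435, 443]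

theorem alt_el {n : ℕ} (hn : n < 512) (h : Alt (el n)) : n ∈ LA := by
  have key : ∀ n < 512, (∀ x ∈ [8, 16, 32, 24, 12, 40],
      bf x (wd (aw (n % 64) ++ dw (n / 64)) x) = 0) → n ∈ LA := by decide +kernel
  refine key n hn fun x hx => ?_
  have hx' : x < 64 := by simp at hx; omega
  rw [← act_wd (append_lt (aw_lt (by omega)) (dw_ok _ (by omega)).1) hx', ← el_word]
  exact h x hx'

theorem altp (F : Subgroup Sp) (h : ∀ x ∈ F, x * x = 1 ∧ Alt x) : Nat.card F ≤ 8 := by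
  obtain ⟨l, F', hF, hc, e⟩ := into_T0 fun x hx => (h x hx).1
  have ha : ∀ n < 512, el n ∈ F' → n ∈ LA := fun n hn k => by
    obtain ⟨x, hx, e'⟩ := (e _).1 k
    exact alt_el hn (e' ▸ (h x hx).2.conj l)
  by_contra k
  obtain ⟨x, hx, hxF, x0⟩ := exists_out hF [0] (by simp; omega)
  obtain ⟨y, hy, hyF, y0⟩ := exists_out hF [0, x] (by simp; omega)
  have key : ∀ x ∈ LA, x ∉ [0] → ∀ y ∈ LA, y ∉ [0, x] → mu x y ∈ LA → (LA.filter fun w =>
      mu w x ∈ LA ∧ mu w y ∈ LA ∧ mu w (mu x y) ∈ LA).length ≤ 8 := by decide +kernel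
  have hxy := mm hx hy hxF hyF
  refine k (hc ▸ (card_le_list hF _ fun n hn k => ?_).trans
    (key x (ha x hx hxF) x0 y (ha y hy hyF) y0 (ha _ (mu_lt _ _) hxy)))
  simpa using ⟨ha n hn k, ha _ (mu_lt _ _) (mm hn hx k hxF), ha _ (mu_lt _ _) (mm hn hy k hyF),
    ha _ (mu_lt _ _) (mm hn (mu_lt _ _) k hxy)⟩

theorem t4 : ∀ p < 64, ∀ q < 64, ∀ r < 64, ∀ s < 64, [0, p, q, r, s].Nodup →
    [p, q, r, s].Pairwise (fun x y => bf x y = 0) → g p * g q * g r * g s ≠ 1 := by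
  intro p hp q hq r hr s hs hn hb e
  simp only [List.nodup_cons, List.mem_cons, List.not_mem_nil, or_false, not_or,
    List.pairwise_cons, forall_eq_or_imp] at hn hb
  obtain ⟨l, h1, h2⟩ := exists_pair hp hq (Ne.symm hn.1.1) (Ne.symm hn.1.2.1) hn.2.1.1 hb.1.1
  have key : ∀ r < 64, ∀ s < 64, cols (wd [1, 2, r, s]) = cols (wd []) → r = 1 ∨ r = 2 := by
    decide +kernel
  have e' : ev g [1, 2, act l r, act l s] = ev g [] := by
    have := conj_ev l [p, q, r, s]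
    simp only [List.map_cons, List.map_nil, h1, h2] at this
    rw [← this, show ev g [p, q, r, s] = 1 by
      simpa [ev, mul_assoc] using e, mul_one, mul_inv_cancel, ev_nil]
  rcases key _ (act_lt l r) _ (act_lt l s) ((ev_eq_iff (by
    simpa using ⟨act_lt l r, act_lt l s⟩) (by simp)).1 e') with k | k
  · exact hn.2.1.2.1 (act_inj l hp hr (h1.trans k.symm))
  · exact hn.2.2.1.1 (act_inj l hq hr (h2.trans k.symm))

theorem idx2 {I J : Subgroup Sp} (hJ : J ≤ I) (hc : Nat.card I = 2 * Nat.card J) {x y : Sp}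
    (hx : x ∈ I) (hy : y ∈ I) (h : x ∈ J ↔ y ∈ J) : x * y ∈ J := by
  have : (J.subgroupOf I).index = 2 := by
    have := (J.subgroupOf I).card_mul_index
    rw [Nat.card_congr (subgroupOfEquivOfLe hJ).toEquiv, hc, mul_comm] at this
    exact Nat.eq_of_mul_eq_mul_right Nat.card_pos this
  exact (mul_mem_iff_of_index_two this (a := ⟨x, hx⟩) (b := ⟨y, hy⟩)).2 h

theorem cmJ {I J : Subgroup Sp} (hJ : J ≤ I) (hc : Nat.card I = 2 * Nat.card J)
    (nI : ∀ u ∈ T0, ∀ x ∈ I, u * x * u⁻¹ ∈ I) (nJ : ∀ u ∈ T0, ∀ x ∈ J, u * x * u⁻¹ ∈ J)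
    {x : ℕ} (hx : x < 512) (h : el x ∈ I) (u : ℕ) (hu : u < 512 ∧ mu u u = 0) :
    el (mu x (mu (mu u x) u)) ∈ J := by
  rw [← el_mul hx (mu_lt _ _), ← el_cj hu.1 hu.2 hx]
  refine idx2 hJ hc h (nI _ (el_T0 hu.1) _ h) ⟨nJ _ (el_T0 hu.1) _, fun k => ?_⟩
  simpa [mul_assoc] using nJ _ (inv_mem (el_T0 hu.1)) _ k

/-- an elementary abelian subgroup of order 32 outside `A` is maximal -/
theorem mem_of_comm {I : Subgroup Sp} (hI : I ≤ T0) (h : ∀ x ∈ I, x * x = 1) (hA : ¬ I ≤ A)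
    (hc : Nat.card I = 32) {z : ℕ} (hz : z < 512 ∧ mu z z = 0)
    (c : ∀ n < 512, el n ∈ I → mu n z = mu z n) : el z ∈ I := by
  have z2 : el z * el z = 1 := by rw [el_mul hz.1 hz.1, hz.2, el_zero]
  have c' : ∀ x ∈ I, x * el z = el z * x := fun x hx => by
    obtain ⟨n, hn, rfl⟩ := T0_el (hI hx)
    rw [el_mul hn hz.1, el_mul hz.1 hn, c n hn hx]
  have hz' := el_T0 hz.1
  generalize el z = t at z2 c' hz'
  have sq : ∀ x, x ∈ I ∨ t * x ∈ I → x * x = 1 := by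
    rintro x (k | k)
    · exact h x k
    · have e : x = t * (t * x) := by rw [← mul_assoc, z2, one_mul]
      rw [e]
      generalize t * x = y at k
      rw [mul_assoc, ← mul_assoc y, c' y k, mul_assoc, h y k, mul_one, z2]
  let K : Subgroup Sp :=
    { carrier := {x | x ∈ I ∨ t * x ∈ I}
      one_mem' := Or.inl I.one_mem
      inv_mem' := fun {x} k => by rwa [inv_eq_of_mul_eq_one_right (sq x k)]
      mul_mem' := by
        rintro x y (k | k) (k' | k')
        · exact Or.inl (mul_mem k k')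
        · exact Or.inr (by rw [← mul_assoc, ← c' x k, mul_assoc]; exact mul_mem k k')
        · exact Or.inr (by rw [← mul_assoc]; exact mul_mem k k')
        · have := mul_mem k k'
          rw [← mul_assoc, c' _ k, ← mul_assoc, z2, one_mul] at this
          exact Or.inl this }
  have hK : I ≤ K := fun x k => Or.inl k
  have := le32 (F := K) (by
    rintro x (k | k)
    · exact hI k
    · exact (T0.mul_mem_cancel_left hz').1 (hI k)) sq fun k => hA (hK.trans k)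
  rw [eq_of_le_of_card_ge hK (by omega)]
  exact Or.inr (by rw [z2]; exact I.one_mem)

theorem tr {F : Subgroup Sp} {n m : ℕ} (h : el n ∈ F) (e : n = m) : el m ∈ F := e ▸ h

theorem el_sg : el 16 = sg 1 4 ∧ el 128 = sg 1 32 ∧ el 145 = sg 1 36 := by
  refine ⟨?_, ?_, ?_⟩ <;> rw [el_word] <;> exact weq (by decide +kernel)

theorem nea (I J : Subgroup Sp) (hJ : J ≤ I) (hI : I ≤ T0) (h : ∀ x ∈ I, x * x = 1)
    (nI : ∀ u ∈ T0, ∀ x ∈ I, u * x * u⁻¹ ∈ I) (nJ : ∀ u ∈ T0, ∀ x ∈ J, u * x * u⁻¹ ∈ J)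
    (cI : Nat.card I = 32) (cJ : Nat.card J = 16) :
    (I ≤ A ∧ ∀ l : Sp, (∀ x ∈ I, l * x = x * l) → l ∈ A) ∨
      ∃ v < 64, ∃ w < 64, bf 1 v = 0 ∧ bf 1 w = 0 ∧ bf v w = 1 ∧ sg 1 v ∈ J ∧ sg 1 w ∈ I := by
  by_cases hA : I ≤ A
  · refine Or.inl ⟨hA, fun l hl => ?_⟩
    have k : ∀ {x : ℕ}, x < 64 → ∀ u, u < 512 ∧ mu u u = 0 → el (mu x (mu (mu u x) u)) ∈ I :=
      fun hx => cmJ hA (by rw [card_A, cI]) (fun u hu _ => P3_conj_A (T0_le_P3 hu)) nI (by omega)
        ((el_A (by omega)).2 hx)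
    have h8 : el 8 ∈ I :=
      tr (k (x := 16) (by norm_num) 256 (by decide +kernel)) (by decide +kernel)
    have h16 : el 16 ∈ I :=
      tr (k (x := 32) (by norm_num) 64 (by decide +kernel)) (by decide +kernel)
    have h9 : el 9 ∈ I :=
      tr (k (x := 2) (by norm_num) 64 (by decide +kernel)) (by decide +kernel)
    have h34 : el 34 ∈ I :=
      tr (k (x := 4) (by norm_num) 256 (by decide +kernel)) (by decide +kernel)
    have h1 : el 1 ∈ I :=
      tr (mm (by norm_num) (by norm_num) h8 h9) (by decide +kernel)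
    rw [el_ac (by norm_num)] at h1 h8 h16 h34
    have f1 : act l 1 = 1 := act_one_of_comm (g1_ac ▸ hl _ h1)
    have f : ∀ v < 64, bf 1 v = 0 → sg 1 v ∈ I → act l v / 2 = v / 2 := fun v hv hb k => by
      have := P1_conj_sg (mem_P1.2 f1) hv hb
      rw [hl _ k, mul_inv_cancel_right] at this
      exact ((sg_inj hv (act_lt _ _) hb this.2).1.1 this.1).symm
    have f2 := f 2 (by norm_num) (by decide) (a12_ac ▸ h8 : a12 ∈ I)
    have f4 := f 4 (by norm_num) (by decide) (a13_ac ▸ h16 : a13 ∈ I)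
    have e := conj_ac_ap (mem_P3.2 ⟨by omega, by omega, by omega⟩ : l ∈ P3) (c := 34) (by norm_num)
    rw [hl _ h34, mul_inv_cancel_right, f1] at e
    have key : ∀ v < 4, ∀ w < 6, v / 2 = 1 → w / 2 = 2 → 34 = cjc (ap 1 v w 0 0 0) 34 →
        v = 2 ∧ w = 4 := by decide +kernel
    exact mem_A3.2 ⟨f1, key _ (by omega) _ (by omega) f2 f4 (ac_inj (by norm_num) e.1 e.2)⟩
  refine Or.inr ?_
  have cj : ∀ {x : ℕ}, x < 512 → el x ∈ I → ∀ u, u < 512 ∧ mu u u = 0 →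
      el (mu x (mu (mu u x) u)) ∈ J := fun hx k => cmJ hJ (by rw [cI, cJ]) nI nJ hx k
  obtain ⟨x, hx, hxI, x2⟩ : ∃ x < 512, el x ∈ I ∧ x / 64 = 2 := by
    obtain ⟨s, hs, hsA⟩ := SetLike.not_le_iff_exists.1 hA
    obtain ⟨x, hx, rfl⟩ := T0_el (hI hs)
    rw [el_A hx] at hsA
    have key : ∀ x < 512, ¬ x < 64 → mu x x = 0 → x / 64 = 2 ∨
        mu x (mu (mu 64 x) 64) / 64 = 2 ∨ mu x (mu (mu 256 x) 256) / 64 = 2 := by decide +kernel
    rcases key x hx hsA (sq0 h hx hs) with k | k | k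
    · exact ⟨x, hx, hs, k⟩
    · exact ⟨_, mu_lt _ _, hJ (cj hx hs 64 (by decide +kernel)), k⟩
    · exact ⟨_, mu_lt _ _, hJ (cj hx hs 256 (by decide +kernel)), k⟩
  have k1 : ∀ x < 512, (mu x 1 = mu 1 x) ∧
      (x / 64 = 2 → mu x x = 0 → mu x (mu (mu 4 x) 4) = 17) := by
    decide +kernel
  have h1 : el 1 ∈ I := mem_of_comm hI h hA cI (by decide +kernel) fun n hn _ => (k1 n hn).1
  have h17 : el 17 ∈ I := tr (hJ (cj hx hxI 4 (by decide +kernel)))
    ((k1 x hx).2 x2 (sq0 h hx hxI))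
  have h16 : el 16 ∈ I :=
      tr (mm (by norm_num) (by norm_num) h1 h17) (by decide +kernel)
  have k2 : ∀ y < 512, mu y y = 0 → mu y 16 = mu 16 y → mu y 128 = mu 128 y ∨
      ∀ x < 192, x / 64 = 2 → mu x x = 0 → mu y x ≠ mu x y := by decide +kernel
  have h128 : el 128 ∈ I := mem_of_comm hI h hA cI (by decide +kernel) fun n hn k =>
    (k2 n hn (sq0 h hn k) (cm h hn (by norm_num) k h16)).resolve_right fun e =>
      e x (by omega) x2 (sq0 h hx hxI) (cm h hn hx k hxI)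
  have j8 : el 8 ∈ J :=
      tr (cj (by norm_num) h16 256 (by decide +kernel)) (by decide +kernel)
  have j9 : el 9 ∈ J := by
    obtain ⟨y, hy, hyI, y0⟩ := exists_out hI
      [0, 1, 8, 9, 16, 17, 24, 25, 128, 129, 136, 137, 144, 145, 152, 153] (by simp [cI])
    have key : ∀ y < 512, mu y y = 0 → mu y 16 = mu 16 y → mu y 128 = mu 128 y →
        y ∉ [0, 1, 8, 9, 16, 17, 24, 25, 128, 129, 136, 137, 144, 145, 152, 153] →
        mu y (mu (mu 2 y) 2) = 9 ∨ mu y (mu (mu 64 y) 64) = 9 := by decide +kernel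
    rcases key y hy (sq0 h hy hyI) (cm h hy (by norm_num) hyI h16) (cm h hy (by norm_num) hyI h128)
      y0 with k | k
    · exact k ▸ cj hy hyI 2 (by decide +kernel)
    · exact k ▸ cj hy hyI 64 (by decide +kernel)
  have j1 : el 1 ∈ J :=
      tr (mm (by norm_num) (by norm_num) j8 j9) (by decide +kernel)
  by_cases a : el 16 ∈ J
  · exact ⟨4, by norm_num, 32, by norm_num, by decide, by decide, by decide, el_sg.1 ▸ a,
      el_sg.2.1 ▸ h128⟩
  by_cases b : el 128 ∈ J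
  · exact ⟨32, by norm_num, 4, by norm_num, by decide, by decide, by decide, el_sg.2.1 ▸ b,
      el_sg.1 ▸ h16⟩
  have c := idx2 hJ (by rw [cI, cJ]) h16 h128 (iff_of_false a b)
  rw [el_mul (by norm_num) (by norm_num)] at c
  have d : el 145 ∈ J :=
      tr (mm (mu_lt _ _) (by norm_num) c j1) (by decide +kernel)
  exact ⟨36, by norm_num, 4, by norm_num, by decide, by decide, by decide, el_sg.2.2 ▸ d,
    el_sg.1 ▸ h16⟩

/-- piece KC -/
theorem kc : KC := ⟨altp, t4, nea⟩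

end Cfsg.Agent.H55.S6K
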