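import Mathlib
import Cfsg.Agent.H55.S6Kc

/-! Facts on `Sp₆(2)`: the piece `KD`. -/

set_option autoImplicit false
set_option maxRecDepth 100000
set_option synthInstance.maxSize 2000

namespace Cfsg.Agent.H55.S6K

open Cfsg Subgroup
open Cfsg.Agent.H44 Cfsg.Agent.H55.Sp6 Cfsg.Agent.H2.L3E Cfsg.Agent.H41.S6

/-- a check over the pointwise stabiliser of `1, 2` -/
def chk2 (Q : (ℕ → ℕ) → Bool) : Bool :=
  (List.range 64).all fun c2 => !(bf 1 c2 == 0 && bf 2 c2 == 0) || (List.range 64).all fun c3 =>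
    !(bf 1 c3 == 1 && bf 2 c3 == 0 && bf c2 c3 == 0) || (List.range 64).all fun c4 =>
      !(bf 1 c4 == 0 && bf 2 c4 == 1 && bf c2 c4 == 0 && bf c3 c4 == 0) ||
        (List.range 64).all fun c5 =>
          !(bf 1 c5 == 0 && bf 2 c5 == 0 && bf c2 c5 == 1 && bf c3 c5 == 0 && bf c4 c5 == 0) ||
            Q (ap 1 2 c2 c3 c4 c5)

theorem elim2 {Q : (ℕ → ℕ) → Bool} (h : chk2 Q = true) {s : Sp} (h0 : act s 1 = 1)
    (h1 : act s 2 = 2) : ∃ f : ℕ → ℕ, (∀ u < 64, f u = act s u) ∧ Q f = true := by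
  refine ⟨ap 1 2 (act s 4) (act s 8) (act s 16) (act s 32), fun u hu => ?_, ?_⟩
  · rw [← act_ap s hu, h0, h1]
  have b : ∀ {a c : ℕ}, a < 64 → c < 64 → bf (act s a) (act s c) = bf a c := bf_act s
  have b1 : ∀ {c : ℕ}, c < 64 → bf 1 (act s c) = bf 1 c := fun hc => by
    rw [← b (show 1 < 64 by norm_num) hc, h0]
  have b2 : ∀ {c : ℕ}, c < 64 → bf 2 (act s c) = bf 2 c := fun hc => by
    rw [← b (show 2 < 64 by norm_num) hc, h1]
  simp only [chk2, List.all_eq_true, List.mem_range, Bool.or_eq_true, Bool.not_eq_true',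
    Bool.and_eq_false_iff, beq_eq_false_iff_ne] at h
  have k2 := h _ (act_lt s 4)
  rw [b1 (by norm_num), b2 (by norm_num)] at k2
  have k3 := k2.resolve_left (by decide) _ (act_lt s 8)
  rw [b1 (by norm_num), b2 (by norm_num), b (by norm_num) (by norm_num)] at k3
  have k4 := k3.resolve_left (by decide) _ (act_lt s 16)
  rw [b1 (by norm_num), b2 (by norm_num), b (by norm_num) (by norm_num),
    b (by norm_num) (by norm_num)] at k4
  have k5 := k4.resolve_left (by decide) _ (act_lt s 32)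
  rw [b1 (by norm_num), b2 (by norm_num), b (by norm_num) (by norm_num),
    b (by norm_num) (by norm_num), b (by norm_num) (by norm_num)] at k5
  exact k5.resolve_left (by decide)

theorem rho_conj (x : Sp) (h1 : act x 1 = 1) (h2 : act x 2 = 2) (h3 : x ^ 3 = 1) (h0 : x ≠ 1)
    (h4 : g 4 * x * g 4 = x⁻¹) : ∃ a ∈ A, x = a * rho * a⁻¹ := by
  have key : chk2 (fun f => !(cols (fun u => mv 4 (f (mv 4 (f u)))) == cols id) ||
      (!(cols (fun u => f (f (f u))) == cols id) || (cols f == cols id ||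
        [0, 4, 16, 20, 32, 36, 48, 52].any fun c =>
          cols f == cols (wd (aw c ++ ([4, 32] ++ aw c)))))) = true := by decide +kernel
  obtain ⟨f, hf, hq⟩ := elim2 key h1 h2
  have e3 : cols (fun u => f (f (f u))) = cols id := cols_congr fun u hu => by
    rw [hf u hu, hf _ (act_lt _ _), hf _ (act_lt _ _), ← act_mul, ← act_mul, ← pow_three', h3,
      act_one hu]; rfl
  have e4 : cols (fun u => mv 4 (f (mv 4 (f u)))) = cols id := cols_congr fun u hu => by
    rw [hf u hu, ← act_g (by norm_num) (act_lt _ _), hf _ (act_lt _ _),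
      ← act_g (by norm_num) (act_lt _ _), ← act_mul, ← act_mul, ← act_mul, h4, inv_mul_cancel,
      act_one hu]; rfl
  simp only [e3, e4, beq_self_eq_true, Bool.not_true, Bool.false_or, List.any_eq_true,
    Bool.or_eq_true, beq_iff_eq] at hq
  rw [cols_congr hf] at hq
  rcases hq with hq | ⟨c, hc, hq⟩
  · exact absurd (ext6 (hq.trans (cols_congr fun u hu => (act_one hu).symm))) h0
  have hc' : c < 64 := by simp at hc; omega
  refine ⟨ac c, ac_mem hc', ?_⟩
  rw [ac_inv hc', ac, rho, mul_assoc, ← ev_append, ← ev_append]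
  exact ext6 (hq.trans (cols_ev (append_lt (aw_lt hc') (append_lt (by simp) (aw_lt hc')))).symm)

theorem step {H : Subgroup Sp} (hH : ∀ u < 64, bf 1 u = 0 → g u ∈ H) (F : List ℕ) (e : ℕ)
    (key : (∀ f ∈ e :: F, f < 64) ∧ e ≠ 0 ∧ e ∉ F ∧ ∀ a < 64, (∀ f ∈ F, bf f a = bf f e) → a ≠ 0 →
      a ∉ F → ∃ u < 64, bf 1 u = 0 ∧ (∀ f ∈ F, mv u f = f) ∧ ∃ v < 64, bf 1 v = 0 ∧
        (∀ f ∈ F, mv v f = f) ∧ mv u (mv v a) = e)
    (ih : ∀ l : Sp, (∀ f ∈ e :: F, act l f = f) → l ∈ H) (l : Sp) (hl : ∀ f ∈ F, act l f = f) :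
    l ∈ H := by
  obtain ⟨lt, e0, eF, key⟩ := key
  have he := lt e (by simp)
  have hF : ∀ f ∈ F, f < 64 := fun f hf => lt f (by simp [hf])
  obtain ⟨u, hu, u1, uF, v, hv, v1, vF, k⟩ := key (act l e) (act_lt _ _)
    (fun f hf => by rw [← bf_act l (hF f hf) he, hl f hf]) (act_ne_zero l he e0) fun k =>
      eF (act_inj l he (hF _ k) (hl _ k).symm ▸ k)
  refine (H.mul_mem_cancel_left (mul_mem (hH u hu u1) (hH v hv v1))).1 (ih _ fun f hf => ?_)
  rw [act_mul, act_mul, act_g hv (act_lt _ _), act_g hu (mv_lt hv (act_lt _ _))]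
  rcases List.mem_cons.1 hf with rfl | hf
  · exact k
  · rw [hl f hf, vF f hf, uF f hf]

theorem gen1 (l : Sp) (hl : l ∈ P1) :
    l ∈ V0 ⊔ Subgroup.closure ({g 2, g 4, g 6, g 16, g 32} : Set Sp) := by
  set H := V0 ⊔ Subgroup.closure ({g 2, g 4, g 6, g 16, g 32} : Set Sp)
  have c : ∀ x ∈ ({g 2, g 4, g 6, g 16, g 32} : Set Sp), x ∈ H := fun x hx =>
    mem_sup_right (subset_closure hx)
  have h1 : g 1 ∈ H := mem_sup_left g1_mem_V0
  have h3 : g 3 ∈ H := by
    have s : sg 1 16 ∈ H := mem_sup_left (sg_mem_V0 (by norm_num) (by decide))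
    have := mul_mem (mul_mem s (c (g 2) (Or.inl rfl))) (inv_mem s)
    rwa [conj_g, sg, act_wd (by decide) (by norm_num),
      show wd [1, 16, 1 ^^^ 16] 2 = 3 by decide +kernel] at this
  have hH : ∀ u < 64, bf 1 u = 0 → g u ∈ H := fun u hu b => by
    have key : ∀ u < 64, bf 1 u = 0 → u = 0 ∨ u ∈ reach [(2, 16), (3, 16), (3, 18), (4, 32), (6, 16),
      (6, 32), (6, 18), (6, 19), (6, 17), (6, 36), (16, 38), (16, 23), (16, 34), (32, 20), (32, 21),
      (32, 23), (32, 7), (2, 50), (3, 50), (3, 48), (4, 39), (6, 39), (6, 35), (32, 37)]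
      [1, 2, 3, 4, 6, 16, 32] := by decide +kernel
    rcases key u hu b with rfl | k
    · rw [g_zero]; exact one_mem _
    refine (reach_spec _ (fun a ha => ?_) u k).2
    simp only [List.mem_cons, List.not_mem_nil, or_false] at ha
    rcases ha with rfl | rfl | rfl | rfl | rfl | rfl | rfl <;> refine ⟨by norm_num, ?_⟩
    exacts [h1, c _ (Or.inl rfl), h3, c _ (Or.inr (Or.inl rfl)), c _ (Or.inr (Or.inr (Or.inl rfl))),
      c _ (Or.inr (Or.inr (Or.inr (Or.inl rfl)))), c _ (Or.inr (Or.inr (Or.inr (Or.inr rfl))))]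
  refine step hH [1] 2 (by decide +kernel) (step hH [2, 1] 16 (by decide +kernel)
    (step hH [16, 2, 1] 4 (by decide +kernel) (step hH [4, 16, 2, 1] 32 (by decide +kernel)
      fun l h => ?_))) l (by simpa using mem_P1.1 hl)
  simp only [List.mem_cons, List.not_mem_nil, or_false, forall_eq_or_imp, forall_eq] at h
  refine mem_sup_left (mem_V0_of h.2.2.2.2 fun x hx b _ => Or.inl ?_)
  have key : ∀ x < 64, bf 1 x = 0 → ∀ c < 64, ap 1 2 4 c 16 32 x = x := by decide +kernel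
  rw [← act_ap l hx, h.1, h.2.1, h.2.2.1, h.2.2.2.1, h.2.2.2.2, key x hx b _ (act_lt _ _)]

theorem card_P3 : Nat.card P3 = 168 * 64 := by
  let S : Finset (ℕ × ℕ × ℕ) := (Finset.range 8 ×ˢ Finset.range 8 ×ˢ Finset.range 8).filter
    fun t => Ind t.1 t.2.1 t.2.2
  have hS : S.card = 168 := by decide +kernel
  choose p hp p1 p2 p4 using fun t : S => gl (Finset.mem_filter.1 t.2).2
  rw [← hS, ← card_A, ← Nat.card_eq_finsetCard, ← Nat.card_prod]
  refine (Nat.card_congr (Equiv.ofBijective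
    (fun t : S × A => (⟨p t.1 * t.2, mul_mem (hp _) (A_le_P3 t.2.2)⟩ : P3)) ⟨?_, ?_⟩)).symm
  · rintro ⟨t, a⟩ ⟨t', a'⟩ e
    have e' : p t * a = p t' * a' := congrArg Subtype.val e
    have k := mem_A3.1 a.2
    have k' := mem_A3.1 a'.2
    have e1 := congrArg (act · 1) e'
    have e2 := congrArg (act · 2) e'
    have e4 := congrArg (act · 4) e'
    simp only [act_mul, k.1, k.2.1, k.2.2, k'.1, k'.2.1, k'.2.2, p1, p2, p4] at e1 e2 e4
    obtain rfl : t = t' := Subtype.ext (Prod.ext e1 (Prod.ext e2 e4))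
    exact Prod.ext rfl (Subtype.ext (mul_left_cancel e'))
  · rintro ⟨q, hq⟩
    have i := ind_of_P3 hq
    let t : S := ⟨(act q 1, act q 2, act q 4), by simpa [S] using ⟨⟨i.1, i.2.1, i.2.2.1⟩, i⟩⟩
    refine ⟨(t, ⟨(p t)⁻¹ * q, mem_A3.2 ⟨?_, ?_, ?_⟩⟩), Subtype.ext (mul_inv_cancel_left _ _)⟩
    · rw [act_mul, show act q 1 = act (p t) 1 from (p1 t).symm, act_inv_act _ (by norm_num)]
    · rw [act_mul, show act q 2 = act (p t) 2 from (p2 t).symm, act_inv_act _ (by norm_num)]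
    · rw [act_mul, show act q 4 = act (p t) 4 from (p4 t).symm, act_inv_act _ (by norm_num)]

/-- piece KD -/
theorem kd : KD :=
  ⟨rho_conj, gen1, by rw [card_P3]; norm_num, by rw [card_P3]; norm_num⟩

/-- all facts on `Sp₆(2)` -/
theorem kf : KF := ⟨kb, kc, kd⟩

end Cfsg.Agent.H55.S6K
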