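import Mathlib
import Cfsg.Agent.H18.X9Code

/-!
# Project X9: three models without outer involutions
-/

set_option autoImplicit false
set_option maxRecDepth 100000

namespace Cfsg.Agent.H55.X9Out

open Cfsg.Agent.H18.X9

theorem not_oi {m : MD} (h : ∀ g ∈ m.S, mul g g = ID → g = ID ∨ ∃ p ∈ m.P, m.inA p g) (g : ℕ) :
    ¬ OI m g := fun ⟨h1, h2, h3, h4⟩ =>
  (h g h1 h3).elim h2 fun ⟨p, hp, e⟩ => h4 p hp e

theorem outA7 : OutA m7 := fun g _ _ h => absurd h (not_oi (by decide +kernel) g)

theorem outB1 : OutB m1 := fun g _ _ h => absurd h (not_oi (by decide +kernel) g)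

theorem outB2 : OutB m2 := fun g _ _ h => absurd h (not_oi (by decide +kernel) g)

end Cfsg.Agent.H55.X9Out
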