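import Mathlib
import Cfsg.Agent.H18.X9Code

/-!
# Project X9: the finite check against outer conjugates, reduction to sublists
-/

set_option autoImplicit false
set_option maxRecDepth 100000

namespace Cfsg.Agent.H55.X9Out

open Cfsg.Agent.H18.X9

/-- evaluates a number first -/
noncomputable def fc {α : Type} (a : ℕ) (f : ℕ → α) : α :=
  Nat.rec (motive := fun _ => α) (f 0) (fun a' _ => f a') (Nat.succ a)

theorem fc_eq {α : Type} (a : ℕ) (f : ℕ → α) : fc a f = f a := rfl

/-- evaluates a list first -/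
noncomputable def fl (l : List ℕ) : (List ℕ → Bool) → Bool :=
  List.rec (motive := fun _ => (List ℕ → Bool) → Bool) (fun k => k [])
    (fun x _ ih k => fc x fun x => ih fun r => k (x :: r)) l

theorem fl_eq (l : List ℕ) (k : List ℕ → Bool) : fl l k = k l := by
  induction l generalizing k with
  | nil => rfl
  | cons x l ih => exact ih _

/-- membership -/
def mm (l : List ℕ) (x : ℕ) : Bool := l.any (Nat.beq x)

theorem mm_iff {l : List ℕ} {x : ℕ} : mm l x = true ↔ x ∈ l := by
  simp [mm, Nat.beq_eq]

/-- the check for one subgroup -/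
noncomputable def okR (C c : List ℕ) (b : ℕ) (R : List ℕ) : Bool :=
  !(mm R 0 && R.all fun r => R.all fun r' => fc (r ^^^ r') (mm R)) ||
    Nat.blt ((C.filter fun h => (c.all fun v => fc (ap h v ^^^ v) (mm R)) &&
      R.all fun r => Nat.beq (ap h r) r).length * R.length) b

/-- the check for one linear form -/
noncomputable def okL (P C fx cm : List ℕ) (bd : List ℕ → ℕ) (l : ℕ) : Bool :=
  !(cm.all fun x => Nat.beq (BN l x) (qN x)) ||
    fl (fx.filter fun v => Nat.beq (BN l v) 0) fun c =>
      fl (c.filter fun r => Nat.beq (qN r) 0 && (c.all fun v => Nat.beq (BN r v) 0) && !mm P r &&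
        (!(fx.any fun v => Nat.beq (BN l v) 1) || Nat.beq r 0 || !mm cm r)) fun Rh =>
      fc (bd c) fun b => Rh.sublists'.all fun R => fl R (okR C c b)

/-- the check for one involution -/
noncomputable def okG (m : MD) (sk : List ℕ → Bool) (bd : List ℕ → ℕ) (g : ℕ) : Bool :=
  !Nat.beq (mul g g) ID || Nat.beq g ID || decide (∃ p ∈ m.P, m.inA p g) ||
    fl (fixL g) (fun fx => sk fx ||
    fl ((List.range 256).map fun y => ap g y ^^^ y) fun cm => fl cm.dedup fun cm =>
      fl (m.S.filter fun h => Nat.beq (mul h g) (mul g h)) fun C =>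
        (List.range 256).all (okL m.P C fx cm bd))

theorem out_of {m : MD} {sk : List ℕ → Bool} {bd : List ℕ → ℕ} {g l : ℕ} {R : List ℕ}
    (e : okG m sk bd g = true) (h : OI m g) (hs : sk (fixL g) = false) (o : OutC m g l R) :
    (sig m g l R).length * R.length < bd (c0 g l) := by
  obtain ⟨-, h2, h3, h4⟩ := h
  simp only [okG, fl_eq, Bool.or_eq_true, Bool.not_eq_true', decide_eq_true_eq, hs, Nat.beq_eq,
    Bool.false_eq_true, false_or] at e
  rcases e with ((e | e) | ⟨p, hp, e⟩) | e
  · rw [h3, Nat.beq_refl] at e; exact absurd e (by decide)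
  · exact absurd e h2
  · exact absurd e (h4 p hp)
  have e := List.all_eq_true.1 e l (List.mem_range.2 o.lt)
  have cm : ∀ x, x ∈ ((List.range 256).map fun y => ap g y ^^^ y).dedup ↔
      ∃ y < 256, ap g y ^^^ y = x := fun x => by simp
  generalize ((List.range 256).map fun y => ap g y ^^^ y).dedup = M at e cm
  simp only [okL, fl_eq, fc_eq, Bool.or_eq_true, Bool.not_eq_true'] at e
  rcases e with e | e
  · rw [List.all_eq_true.2 fun x hx => by
      obtain ⟨y, hy, rfl⟩ := (cm x).1 hx
      rw [o.lam y hy, Nat.beq_refl]] at e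
    exact absurd e (by decide)
  change (List.sublists' ((c0 g l).filter _)).all (fun R => okR _ (c0 g l) (bd (c0 g l)) R) = true
    at e
  obtain ⟨R', hp, hs⟩ : R.Subperm ((c0 g l).filter fun r => Nat.beq (qN r) 0 &&
      ((c0 g l).all fun v => Nat.beq (BN r v) 0) && !mm m.P r &&
      (!((fixL g).any fun v => Nat.beq (BN l v) 1) || Nat.beq r 0 || !mm M r)) :=
    o.nd.subperm fun r hr => by
      obtain ⟨m1, m2, m3, m4⟩ := o.mem r hr
      refine List.mem_filter.2 ⟨m1, ?_⟩
      simp only [Bool.and_eq_true, Nat.beq_eq, List.all_eq_true, Bool.not_eq_true',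
        Bool.or_eq_true, ← Bool.not_eq_true, mm_iff, List.any_eq_true]
      refine ⟨⟨⟨m2, m4⟩, m3⟩, ?_⟩
      by_contra hn
      push Not at hn
      obtain ⟨y, hy, e⟩ := (cm r).1 hn.2
      exact o.nz hn.1.1 r hr hn.1.2 y hy e
  have e := List.all_eq_true.1 e R' (List.mem_sublists'.2 hs)
  have mem : ∀ x, x ∈ R' ↔ x ∈ R := fun x => hp.mem_iff
  simp only [okR, fc_eq, Bool.or_eq_true, Bool.not_eq_true', Nat.blt_eq] at e
  rcases e with e | e
  · rw [mm_iff.2 ((mem 0).2 o.zero), List.all_eq_true.2 fun r hr => List.all_eq_true.2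
      fun r' hr' => mm_iff.2 ((mem _).2 (o.xor r ((mem r).1 hr) r' ((mem r').1 hr')))] at e
    exact absurd e (by decide)
  rw [List.filter_filter, hp.length_eq] at e
  rw [sig, List.filter_congr (q := fun h => (((c0 g l).all fun v => mm R' (ap h v ^^^ v)) &&
    R'.all fun r => Nat.beq (ap h r) r) && Nat.beq (mul h g) (mul g h)) fun h _ => ?_]
  · exact e
  · rw [Bool.eq_iff_iff]
    simp only [decide_eq_true_eq, Bool.and_eq_true, List.all_eq_true, mm_iff, mem, Nat.beq_eq]
    exact and_comm

theorem outA_of {m : MD} (e : m.S.all (okG m (fun _ => false) fun c => 2 * c.length) = true) :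
    OutA m := fun g _ _ h o => out_of (List.all_eq_true.1 e g h.1) h rfl o

theorem outB_of {m : MD}
    (e : m.S.all (okG m (fun f => !Nat.beq f.length 64) fun _ => 16) = true) : OutB m :=
  fun g _ _ h h1 o => out_of (List.all_eq_true.1 e g h.1) h (by simp [h1]) o

end Cfsg.Agent.H55.X9Out
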