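import Mathlib
import Cfsg.Agent.H55.X9OutK

/-!
# Project X9: the outer-conjugate check for model 0
-/

set_option autoImplicit false
set_option maxRecDepth 100000

namespace Cfsg.Agent.H55.X9Out
open Cfsg.Agent.H18.X9

theorem outA0 : OutA m0 := outA_of (by decide +kernel)

end Cfsg.Agent.H55.X9Out
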