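import Mathlib
import Cfsg.Agent.H55.X9OutK

/-!
# Project X9: the outer-conjugate check for model 6
-/

set_option autoImplicit false
set_option maxRecDepth 100000

namespace Cfsg.Agent.H55.X9Out
open Cfsg.Agent.H18.X9

theorem outA6_0 : ((m6.S.drop 0).take 30).all
    (okG m6 (fun _ => false) fun c => 2 * c.length) = true := by decide +kernel

theorem outA6_1 : ((m6.S.drop 30).take 40).all
    (okG m6 (fun _ => false) fun c => 2 * c.length) = true := by decide +kernel

theorem outA6_2 : ((m6.S.drop 70).take 30).all
    (okG m6 (fun _ => false) fun c => 2 * c.length) = true := by decide +kernel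

theorem outA6_3 : ((m6.S.drop 100).take 14).all
    (okG m6 (fun _ => false) fun c => 2 * c.length) = true := by decide +kernel

theorem outA6_4 : ((m6.S.drop 114).take 21).all
    (okG m6 (fun _ => false) fun c => 2 * c.length) = true := by decide +kernel

theorem outA6_5 : (m6.S.drop 135).all
    (okG m6 (fun _ => false) fun c => 2 * c.length) = true := by decide +kernel

theorem outA6 : OutA m6 := outA_of <| by
  have s : ∀ (l : List ℕ) (f : ℕ → Bool) (a k : ℕ), ((l.drop a).take k).all f = true →
      (l.drop (a + k)).all f = true → (l.drop a).all f = true := fun l f a k h1 h2 => by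
    rw [← List.take_append_drop k (l.drop a), List.all_append, h1, List.drop_drop, h2]; rfl
  exact s _ _ 0 30 outA6_0 (s _ _ 30 40 outA6_1 (s _ _ 70 30 outA6_2 (s _ _ 100 14 outA6_3 (s _ _ 114 21 outA6_4 outA6_5))))

end Cfsg.Agent.H55.X9Out
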